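import Mathlib
import Cfsg.Prelude.Def_JComponents
import Cfsg.Agent.Lib.Helper71.JC.JCInst
import Cfsg.Agent.Lib.Helper85.KS12.JSylow
import Cfsg.Agent.Lib.Helper91.Coprime2
import Cfsg.Agent.Lib.Helper11.ThompsonSylow

set_option autoImplicit false

/-!
# KS12, part FF2: construction of a J(T)-component inside a subgroup `D` (helper25)

Setting: `T` a Sylow 2-subgroup of `L`, `R ≤ T` a 2-subgroup normal in `L`, `R ≤ C ≤ D ≤ L` with
`C` normal in `L`, `C / R` of odd order, `[C, T] ≤ R`, `|D : C| = 3`, `J(T)` normalizes `D` and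
acts nontrivially on `D / C`, and `C` contains the centralizer in `D` of `Ω₁(Z(R))`.
Then `D = K C` for a subgroup `K` with all the group-theoretic properties of a J(T)-component.
-/

namespace Cfsg.Agent.Lib.Helper25.KS12

open Cfsg
open Cfsg.Agent.Lib.Helper11 (maxElemAbIn)
open Cfsg.Agent.Lib.Helper71.JC
open scoped commutatorElement

variable {G : Type*} [Group G]

/-- Step 1: an involution of `J(T)` acting nontrivially on `D / C`. -/
theorem exists_involution_not_comm {T C D : Subgroup G}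
    (hJC : thompsonSubgroupOf 2 T ≤ Subgroup.normalizer (C : Set G))
    (hJDC : ¬ ⁅D, thompsonSubgroupOf 2 T⁆ ≤ C) :
    ∃ a ∈ thompsonSubgroupOf 2 T, a ^ 2 = 1 ∧ ∃ g ∈ D, g * a * g⁻¹ * a⁻¹ ∉ C := by
  by_contra hcon
  push Not at hcon
  apply hJDC
  have hle : thompsonSubgroupOf 2 T ≤ commW C (D : Set G) := by
    rw [Cfsg.Agent.Lib.Helper11.thompsonSubgroupOf_eq, sSup_le_iff]
    intro A hA a ha
    have haJ : a ∈ thompsonSubgroupOf 2 T :=
      Cfsg.Agent.Lib.Helper11.le_thompsonSubgroupOf hA ha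
    exact mem_commW.mpr ⟨hJC haJ, fun g hg => hcon a haJ (hA.2.1.2 a ha) g hg⟩
  rw [Subgroup.commutator_le]
  intro g hg j hj
  have h := (mem_commW.mp (hle hj)).2 g hg
  rw [commutatorElement_def]
  exact h

/-- Step 2: an element of order 3 of `D ∖ C` inverted by the involution `a`. -/
theorem exists_inverted_order_three {R C D T : Subgroup G} (hR2 : IsPGroup 2 R) (hCD : C ≤ D)
    (hDC : C.relIndex D = 3) (hDn : D ≤ Subgroup.normalizer (C : Set G)) (hCT : ⁅C, T⁆ ≤ R)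
    {a g : G} (haT : a ∈ T) (haD : a ∈ Subgroup.normalizer (D : Set G)) (ha2 : a ^ 2 = 1)
    (hg : g ∈ D) (hy : g * a * g⁻¹ * a⁻¹ ∉ C) :
    ∃ d ∈ D, d ∉ C ∧ d ^ 3 = 1 ∧ a * d * a⁻¹ = d⁻¹ := by
  set y := g * a * g⁻¹ * a⁻¹ with hydef
  have haa : a * a = 1 := by rw [← pow_two]; exact ha2
  have hyD : y ∈ D := by
    have h1 : y = g * (a * g⁻¹ * a⁻¹) := by rw [hydef]; group
    rw [h1]
    exact D.mul_mem hg (conj_mem_of_mem_normalizer haD (D.inv_mem hg))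
  have hinv : a * y * a⁻¹ = y⁻¹ := by
    symm
    apply inv_eq_of_mul_eq_one_right
    calc y * (a * y * a⁻¹) = g * (a * a) * g⁻¹ * (a * a)⁻¹ := by rw [hydef]; group
      _ = 1 := by rw [haa]; group
  have hy3 : y ^ 3 ∈ C := (q3 hCD hDn hDC hyD hy).1
  have hy6 : y ^ 6 ∈ R := by
    have h1 : ⁅y ^ 3, a⁆ ∈ ⁅C, T⁆ := Subgroup.commutator_mem_commutator hy3 haT
    have h2 : ⁅y ^ 3, a⁆ = y ^ 6 := by
      have h3 : a * (y ^ 3)⁻¹ * a⁻¹ = y ^ 3 := by
        have h4 : a * (y ^ 3)⁻¹ * a⁻¹ = (a * y * a⁻¹)⁻¹ ^ 3 := by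
          rw [← inv_pow, ← conj_pow]; group
        rw [h4, hinv, inv_inv]
      rw [commutatorElement_def, mul_assoc, mul_assoc, ← mul_assoc a, h3, ← pow_add]
    rw [← h2]; exact hCT h1
  obtain ⟨k, hk⟩ := hR2 ⟨y ^ 6, hy6⟩
  have hk' : (y ^ 6) ^ (2 ^ k) = 1 := by
    have := congrArg Subtype.val hk
    simpa using this
  refine ⟨y ^ (2 ^ (k + 1)), D.pow_mem hyD _, ?_, ?_, ?_⟩
  · intro hd
    apply hy
    have hcop : Nat.Coprime 3 (2 ^ (k + 1)) := Nat.Coprime.pow_right _ (by norm_num)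
    exact mem_of_pow_mem_coprime hcop hy3 hd
  · rw [← pow_mul]
    have : 2 ^ (k + 1) * 3 = 6 * 2 ^ k := by ring
    rw [this, pow_mul]; exact hk'
  · rw [← conj_pow, hinv, inv_pow]

/-- `T` acts trivially on `C / R`: if `t d t⁻¹ = d c` with `c ∈ C` and `t` in the 2-group `T`, then
`c ∈ R`. -/
theorem mem_of_conj_eq_mul {R C T : Subgroup G} (hT2 : IsPGroup 2 T) (hRC : R ≤ C)
    (hCR : C ≤ Subgroup.normalizer (R : Set G)) (hTR : T ≤ Subgroup.normalizer (R : Set G))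
    (hCodd : Odd (R.relIndex C)) (hCT : ⁅C, T⁆ ≤ R) {t d c : G} (ht : t ∈ T) (hc : c ∈ C)
    (h : t * d * t⁻¹ = d * c) : c ∈ R := by
  have hcinv : c⁻¹ = t * d⁻¹ * t⁻¹ * d := by
    have h1 : c = d⁻¹ * (t * d * t⁻¹) := by rw [h]; group
    rw [h1]; group
  have key : ∀ k : ℕ, (c ^ k)⁻¹ * d⁻¹ * t ^ k * d * (t ^ k)⁻¹ ∈ R := by
    intro k
    induction k with
    | zero => simp
    | succ k ih =>
      have hck : c ^ k ∈ C := C.pow_mem hc k
      rw [pow_succ' c k, pow_succ' t k]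
      generalize c ^ k = ck at ih hck ⊢
      generalize t ^ k = tk at ih ⊢
      have e : (c * ck)⁻¹ * d⁻¹ * (t * tk) * d * (t * tk)⁻¹ =
          (ck⁻¹ * t * ck * t⁻¹) * (t * (ck⁻¹ * d⁻¹ * tk * d * tk⁻¹) * t⁻¹) := by
        rw [mul_inv_rev c ck, hcinv]; group
      rw [e]
      refine R.mul_mem (hCT ?_) (conj_mem_of_mem_normalizer (hTR ht) ih)
      have h2 : ck⁻¹ * t * ck * t⁻¹ = ⁅ck⁻¹, t⁆ := by rw [commutatorElement_def, inv_inv]
      rw [h2]
      exact Subgroup.commutator_mem_commutator (C.inv_mem hck) ht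
  obtain ⟨m, hm⟩ := hT2 ⟨t, ht⟩
  have hm' : t ^ (2 ^ m) = 1 := by simpa using congrArg Subtype.val hm
  have h1 : c ^ (2 ^ m) ∈ R := by
    have h2 := key (2 ^ m)
    rw [hm'] at h2
    have h3 : (c ^ 2 ^ m)⁻¹ * d⁻¹ * 1 * d * (1 : G)⁻¹ = (c ^ 2 ^ m)⁻¹ := by group
    rw [h3] at h2
    exact (Subgroup.inv_mem_iff R).mp h2
  have h2 : c ^ (R.relIndex C) ∈ R := by
    haveI : (R.subgroupOf C).Normal := (Subgroup.normal_subgroupOf_iff_le_normalizer hRC).mpr hCR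
    have h3 := Subgroup.pow_index_mem (R.subgroupOf C) (⟨c, hc⟩ : C)
    exact Subgroup.mem_subgroupOf.mp h3
  have hcop : Nat.Coprime (2 ^ m) (R.relIndex C) :=
    Nat.Coprime.pow_left m (Nat.coprime_two_left.mpr hCodd)
  exact mem_of_pow_mem_coprime hcop h1 h2

/-- Every element of `T` normalizing `D` maps `d` into `R ⟨d⟩`. -/
theorem conj_mem_sup_zpowers {T L R C D : Subgroup G} (hT2 : IsPGroup 2 T) (hTL : T ≤ L)
    (hRC : R ≤ C) (hCD : C ≤ D) (hDL : D ≤ L) (hRn : L ≤ Subgroup.normalizer (R : Set G))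
    (hCn : L ≤ Subgroup.normalizer (C : Set G)) (hCodd : Odd (R.relIndex C)) (hCT : ⁅C, T⁆ ≤ R)
    (hDC : C.relIndex D = 3) {a d : G} (haT : a ∈ T)
    (hdD : d ∈ D) (hdC : d ∉ C) (hd3 : d ^ 3 = 1) (had : a * d * a⁻¹ = d⁻¹) {t : G} (ht : t ∈ T)
    (htD : t ∈ Subgroup.normalizer (D : Set G)) : t * d * t⁻¹ ∈ R ⊔ Subgroup.zpowers d := by
  have h1 : t * d * t⁻¹ ∈ D := conj_mem_of_mem_normalizer htD hdD
  have hdnC : d ∈ Subgroup.normalizer (C : Set G) := hCn (hDL hdD)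
  have hdnR : d ∈ Subgroup.normalizer (R : Set G) := hRn (hDL hdD)
  have hCR : C ≤ Subgroup.normalizer (R : Set G) := (hCD.trans hDL).trans hRn
  have hTR : T ≤ Subgroup.normalizer (R : Set G) := hTL.trans hRn
  have hdZ : d ∈ R ⊔ Subgroup.zpowers d := (le_sup_right : _ ≤ R ⊔ Subgroup.zpowers d)
    (Subgroup.mem_zpowers d)
  have hRle : R ≤ R ⊔ Subgroup.zpowers d := le_sup_left
  obtain ⟨i, c, hc, hi⟩ := (q3 hCD (hDL.trans hCn) hDC hdD hdC).2 _ h1
  rw [pow_eq_pow_mod i hd3] at hi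
  have h3 : i % 3 = 0 ∨ i % 3 = 1 ∨ i % 3 = 2 := by omega
  rcases h3 with h3 | h3 | h3
  · exfalso
    apply hdC
    rw [h3, pow_zero, one_mul] at hi
    have h4 : d = t⁻¹ * (t * d * t⁻¹) * t := by group
    rw [h4, hi]
    exact conj_inv_mem_of_mem_normalizer (hCn (hTL ht)) hc
  · rw [h3, pow_one] at hi
    have hcR : c ∈ R := mem_of_conj_eq_mul hT2 hRC hCR hTR hCodd hCT ht hc hi
    rw [hi]
    exact Subgroup.mul_mem _ hdZ (hRle hcR)
  · rw [h3] at hi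
    have hd2 : d ^ 2 = d⁻¹ := by
      apply eq_inv_of_mul_eq_one_left
      rw [← pow_succ]; exact hd3
    have hc' : d⁻¹ * c⁻¹ * d ∈ C := conj_inv_mem_of_mem_normalizer hdnC (C.inv_mem hc)
    have h5 : (t * a) * d * (t * a)⁻¹ = d * (d⁻¹ * c⁻¹ * d) := by
      have h6 : (t * a) * d * (t * a)⁻¹ = t * (a * d * a⁻¹) * t⁻¹ := by group
      have h7 : t * d⁻¹ * t⁻¹ = (t * d * t⁻¹)⁻¹ := by group
      rw [h6, had, h7, hi, hd2]; group
    have h8 : d⁻¹ * c⁻¹ * d ∈ R :=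
      mem_of_conj_eq_mul hT2 hRC hCR hTR hCodd hCT (T.mul_mem ht haT) hc' h5
    have hcR : c ∈ R := by
      have h9 := conj_mem_of_mem_normalizer hdnR h8
      have h10 : d * (d⁻¹ * c⁻¹ * d) * d⁻¹ = c⁻¹ := by group
      rw [h10] at h9
      exact (Subgroup.inv_mem_iff R).mp h9
    rw [hi]
    exact Subgroup.mul_mem _ (Subgroup.pow_mem _ hdZ 2) (hRle hcR)

/-- An element normalizing `R` and mapping `d` into `R ⟨d⟩` maps `R ⟨d⟩` into itself. -/
theorem conj_mem_sup_zpowers_of_mem {R : Subgroup G} {d t : G}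
    (ht : t ∈ Subgroup.normalizer (R : Set G)) (h : t * d * t⁻¹ ∈ R ⊔ Subgroup.zpowers d) {x : G}
    (hx : x ∈ R ⊔ Subgroup.zpowers d) : t * x * t⁻¹ ∈ R ⊔ Subgroup.zpowers d := by
  have hle : R ⊔ Subgroup.zpowers d ≤
      (R ⊔ Subgroup.zpowers d).comap (MulAut.conj t).toMonoidHom := by
    apply sup_le
    · intro r hr
      rw [Subgroup.mem_comap]
      have : (MulAut.conj t).toMonoidHom r = t * r * t⁻¹ := by simp [MulAut.conj_apply]
      rw [this]
      exact (le_sup_left : R ≤ R ⊔ Subgroup.zpowers d) (conj_mem_of_mem_normalizer ht hr)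
    · rw [Subgroup.zpowers_le, Subgroup.mem_comap]
      have : (MulAut.conj t).toMonoidHom d = t * d * t⁻¹ := by simp [MulAut.conj_apply]
      rw [this]; exact h
  have h1 := hle hx
  rw [Subgroup.mem_comap] at h1
  have : (MulAut.conj t).toMonoidHom x = t * x * t⁻¹ := by simp [MulAut.conj_apply]
  rw [this] at h1; exact h1

/-- The subgroup generated by the elements of odd order is invariant under every conjugation
preserving the ambient subgroup. -/
theorem conj_mem_oddClosure {K₁ : Subgroup G} {t : G} (h : ∀ x ∈ K₁, t * x * t⁻¹ ∈ K₁) {x : G}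
    (hx : x ∈ Subgroup.closure {g : G | g ∈ K₁ ∧ Odd (orderOf g)}) :
    t * x * t⁻¹ ∈ Subgroup.closure {g : G | g ∈ K₁ ∧ Odd (orderOf g)} := by
  induction hx using Subgroup.closure_induction with
  | mem y hy =>
    apply Subgroup.subset_closure
    refine ⟨h y hy.1, ?_⟩
    have h1 : orderOf (t * y * t⁻¹) = orderOf y := by
      rw [← MulAut.conj_apply]; exact MulEquiv.orderOf_eq _ _
    rw [h1]; exact hy.2
  | one => simp
  | mul a b _ _ ha hb =>
    have h1 : t * (a * b) * t⁻¹ = (t * a * t⁻¹) * (t * b * t⁻¹) := by group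
    rw [h1]; exact Subgroup.mul_mem _ ha hb
  | inv a _ ha =>
    have h1 : t * a⁻¹ * t⁻¹ = (t * a * t⁻¹)⁻¹ := by group
    rw [h1]; exact Subgroup.inv_mem _ ha

/-- An element of odd order of `N R`, `R` a 2-group normalizing `N`, lies in `N`. -/
theorem mem_of_odd_of_mem_sup {N R : Subgroup G} (hR2 : IsPGroup 2 R)
    (hRN : R ≤ Subgroup.normalizer (N : Set G)) {g : G} (hg : g ∈ N ⊔ R)
    (hodd : Odd (orderOf g)) : g ∈ N := by
  obtain ⟨n, hn, r, hr, rfl⟩ := (mem_sup_of_le_normalizer hRN).mp hg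
  have key : ∀ k : ℕ, (n * r) ^ k * (r ^ k)⁻¹ ∈ N := by
    intro k
    induction k with
    | zero => simp
    | succ k ih =>
      have hrk : r ^ k ∈ R := R.pow_mem hr k
      rw [pow_succ (n * r) k, pow_succ r k]
      generalize (n * r) ^ k = x at ih ⊢
      generalize r ^ k = rk at ih hrk ⊢
      have e : x * (n * r) * (rk * r)⁻¹ = (x * rk⁻¹) * (rk * n * rk⁻¹) := by group
      rw [e]
      exact N.mul_mem ih (conj_mem_of_mem_normalizer (hRN hrk) hn)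
  obtain ⟨m, hm⟩ := hR2 ⟨r, hr⟩
  have hm' : r ^ (2 ^ m) = 1 := by simpa using congrArg Subtype.val hm
  have h1 : (n * r) ^ (2 ^ m) ∈ N := by
    have h2 := key (2 ^ m)
    rw [hm', inv_one, mul_one] at h2
    exact h2
  have h2 : (n * r) ^ (orderOf (n * r)) ∈ N := by
    rw [pow_orderOf_eq_one]; exact N.one_mem
  have hcop : Nat.Coprime (2 ^ m) (orderOf (n * r)) :=
    Nat.Coprime.pow_left m (Nat.coprime_two_left.mpr hodd)
  exact mem_of_pow_mem_coprime hcop h1 h2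

/-- **FF2, core**: construction of a J(T)-component `K` with `D = K C`.  The hypothesis `hFG` is
the four-group lemma (condition (3) of `IsJComponent` from conditions (1) and `W_K ≠ 1`). -/
theorem exists_jComponent_core [Finite G] (T L R C D : Subgroup G) (hTL : IsSylowTwoIn T L)
    (hRT : R ≤ T) (hRn : L ≤ Subgroup.normalizer (R : Set G)) (hRC : R ≤ C) (hCD : C ≤ D)
    (hDL : D ≤ L) (hCn : L ≤ Subgroup.normalizer (C : Set G)) (hCodd : Odd (R.relIndex C))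
    (hCT : ⁅C, T⁆ ≤ R)
    (hCV : ∀ x ∈ D, x ∈ Subgroup.centralizer (omegaCenterOf R : Set G) → x ∈ C)
    (hDC : C.relIndex D = 3)
    (hJD : thompsonSubgroupOf 2 T ≤ Subgroup.normalizer (D : Set G))
    (hJDC : ¬ ⁅D, thompsonSubgroupOf 2 T⁆ ≤ C)
    (hFG : ∀ K : Subgroup G, Subgroup.closure {g : G | g ∈ K ∧ Odd (orderOf g)} = K →
      ⁅K, thompsonSubgroupOf 2 T⁆ = K → (pCoreOf 2 K).relIndex K = 3 → wOf K ≤ T → wOf K ≠ ⊥ →
      Nat.card ↥(wOf K) = 4 ∧ ∀ w ∈ wOf K, w * w = 1) :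
    ∃ K : Subgroup G, IsJComponent T K ∧ K ≤ D ∧ K ⊔ C = D ∧ pCoreOf 2 K = K ⊓ R ∧
      R ≤ Subgroup.normalizer (K : Set G) := by
  haveI : Fact (Nat.Prime 2) := ⟨Nat.prime_two⟩
  haveI : Fact (Nat.Prime 3) := ⟨Nat.prime_three⟩
  have hT2 : IsPGroup 2 T := hTL.2.1
  have hTLle : T ≤ L := hTL.1
  have hR2 : IsPGroup 2 R := hT2.to_le hRT
  have hJT : thompsonSubgroupOf 2 T ≤ T := Cfsg.Agent.Lib.Helper11.thompsonSubgroupOf_le 2 T
  have hTJ : T ≤ Subgroup.normalizer (thompsonSubgroupOf 2 T : Set G) :=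
    Subgroup.le_normalizer.trans
      (Cfsg.Agent.Lib.Helper11.normalizer_le_normalizer_thompsonSubgroupOf 2 T)
  obtain ⟨a, haJ, ha2, g, hg, hy⟩ :=
    exists_involution_not_comm (hJT.trans (hTLle.trans hCn)) hJDC
  obtain ⟨d, hdD, hdC, hd3, had⟩ :=
    exists_inverted_order_three hR2 hCD hDC (hDL.trans hCn) hCT (hJT haJ) (hJD haJ) ha2 hg hy
  have hdL : d ∈ L := hDL hdD
  have hdR : d ∈ Subgroup.normalizer (R : Set G) := hRn hdL
  have hd1 : d ≠ 1 := fun h => hdC (h ▸ C.one_mem)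
  have hord : orderOf d = 3 := orderOf_eq_prime hd3 hd1
  have hZn : Subgroup.zpowers d ≤ Subgroup.normalizer (R : Set G) :=
    (Subgroup.zpowers_le).mpr hdR
  obtain ⟨K₁, hK₁⟩ : ∃ K₁ : Subgroup G, K₁ = R ⊔ Subgroup.zpowers d := ⟨_, rfl⟩
  obtain ⟨K, hK⟩ : ∃ K : Subgroup G,
      K = Subgroup.closure {g : G | g ∈ K₁ ∧ Odd (orderOf g)} := ⟨_, rfl⟩
  have hRK₁ : R ≤ K₁ := hK₁ ▸ le_sup_left
  have hdK₁ : d ∈ K₁ := by
    rw [hK₁]; exact (le_sup_right : _ ≤ R ⊔ Subgroup.zpowers d) (Subgroup.mem_zpowers d)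
  have hK₁D : K₁ ≤ D := by
    rw [hK₁]; exact sup_le (hRC.trans hCD) ((Subgroup.zpowers_le).mpr hdD)
  have hK₁L : K₁ ≤ L := hK₁D.trans hDL
  have hK₁n : K₁ ≤ Subgroup.normalizer (R : Set G) := hK₁L.trans hRn
  have hKK₁ : K ≤ K₁ := by
    rw [hK, Subgroup.closure_le]; exact fun g hg => hg.1
  have hdK : d ∈ K := by
    rw [hK]; exact Subgroup.subset_closure ⟨hdK₁, by rw [hord]; decide⟩
  have hKD : K ≤ D := hKK₁.trans hK₁D
  have hKL : K ≤ L := hKD.trans hDL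
  -- orders
  have hinf : R ⊓ Subgroup.zpowers d = ⊥ := by
    rw [eq_bot_iff]
    intro x hx
    obtain ⟨hxR, hxZ⟩ := Subgroup.mem_inf.mp hx
    obtain ⟨i, rfl⟩ := Subgroup.mem_zpowers_iff.mp hxZ
    have h3 : (d ^ i) ^ 3 = 1 := by
      rw [← zpow_natCast, ← zpow_mul, mul_comm, zpow_mul, zpow_natCast, hd3, one_zpow]
    obtain ⟨k, hk⟩ := hR2 ⟨d ^ i, hxR⟩
    have hk' : (d ^ i) ^ (2 ^ k) = 1 := by simpa using congrArg Subtype.val hk
    have hcop : Nat.Coprime 3 (2 ^ k) := Nat.Coprime.pow_right _ (by norm_num)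
    refine mem_of_pow_mem_coprime hcop ?_ ?_
    · rw [h3]; exact Subgroup.one_mem _
    · rw [hk']; exact Subgroup.one_mem _
  have hRpos : 0 < Nat.card R := Nat.card_pos
  have hcardK₁ : Nat.card K₁ = Nat.card R * 3 := by
    have h := Cfsg.Agent.Lib.Helper91.card_sup_mul_card_inf_of_le_normalizer R
      (Subgroup.zpowers d) hZn
    rw [hinf, Subgroup.card_bot, mul_one, Nat.card_zpowers, hord, ← hK₁] at h
    exact h
  have hRidx : R.relIndex K₁ = 3 := by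
    have h := Cfsg.Agent.Lib.Helper1.card_eq_card_mul_relIndex hRK₁
    rw [hcardK₁] at h
    exact (Nat.eq_of_mul_eq_mul_left hRpos h).symm
  have hcube : ∀ x ∈ K₁, x ^ 3 ∈ R := by
    intro x hx
    by_cases hxR : x ∈ R
    · exact R.pow_mem hxR 3
    · exact (q3 hRK₁ hK₁n hRidx hx hxR).1
  have h2elt : ∀ x ∈ K₁, ∀ k : ℕ, x ^ (2 ^ k) = 1 → x ∈ R := by
    intro x hx k hk
    have hcop : Nat.Coprime 3 (2 ^ k) := Nat.Coprime.pow_right _ (by norm_num)
    refine mem_of_pow_mem_coprime hcop (hcube x hx) ?_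
    rw [hk]; exact R.one_mem
  -- invariance
  have hJK₁ : ∀ t ∈ thompsonSubgroupOf 2 T, ∀ x ∈ K₁, t * x * t⁻¹ ∈ K₁ := by
    intro t ht x hx
    rw [hK₁] at hx ⊢
    refine conj_mem_sup_zpowers_of_mem (hRn (hTLle (hJT ht))) ?_ hx
    exact conj_mem_sup_zpowers hT2 hTLle hRC hCD hDL hRn hCn hCodd hCT hDC (hJT haJ) hdD hdC hd3
      had (hJT ht) (hJD ht)
  have hJK : ∀ t ∈ thompsonSubgroupOf 2 T, ∀ x ∈ K, t * x * t⁻¹ ∈ K := by
    intro t ht x hx
    rw [hK] at hx ⊢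
    exact conj_mem_oddClosure (hJK₁ t ht) hx
  have hK₁K : ∀ t ∈ K₁, ∀ x ∈ K, t * x * t⁻¹ ∈ K := by
    intro t ht x hx
    rw [hK] at hx ⊢
    exact conj_mem_oddClosure (fun y hy => K₁.mul_mem (K₁.mul_mem ht hy) (K₁.inv_mem ht)) hx
  have hK₁Kn : K₁ ≤ Subgroup.normalizer (K : Set G) :=
    Cfsg.Agent.Lib.Helper53.le_normalizer_of_conj_mem hK₁K
  have hRKn : R ≤ Subgroup.normalizer (K : Set G) := hRK₁.trans hK₁Kn
  -- (1a)
  have h1a : Subgroup.closure {g : G | g ∈ K ∧ Odd (orderOf g)} = K := by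
    apply le_antisymm
    · rw [Subgroup.closure_le]; exact fun g hg => hg.1
    · conv_lhs => rw [hK]
      rw [Subgroup.closure_le]
      intro g hg
      apply Subgroup.subset_closure
      refine ⟨?_, hg.2⟩
      rw [hK]; exact Subgroup.subset_closure hg
  -- (1c)
  have hKR : K ≤ Subgroup.normalizer (R : Set G) := hKK₁.trans hK₁n
  have hQ : pCoreOf 2 K = K ⊓ R := by
    apply le_antisymm
    · apply le_inf (Cfsg.Agent.Lib.Helper47.pCoreOf_le 2 K)
      intro x hx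
      obtain ⟨k, hk⟩ := (Cfsg.Agent.Lib.Helper47.pCoreOf_isPGroup 2 K) ⟨x, hx⟩
      have hk' : x ^ (2 ^ k) = 1 := by simpa using congrArg Subtype.val hk
      exact h2elt x (hKK₁ (Cfsg.Agent.Lib.Helper47.pCoreOf_le 2 K hx)) k hk'
    · apply Cfsg.Agent.Lib.Helper85.KS12.le_pCoreOf_of_normal (hR2.to_le inf_le_right)
        inf_le_left
      apply Cfsg.Agent.Lib.Helper53.le_normalizer_of_conj_mem
      intro k hk w hw
      obtain ⟨hwK, hwR⟩ := Subgroup.mem_inf.mp hw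
      exact Subgroup.mem_inf.mpr ⟨K.mul_mem (K.mul_mem hk hwK) (K.inv_mem hk),
        conj_mem_of_mem_normalizer (hKR hk) hwR⟩
  have hsupRK : R ⊔ K = K₁ := by
    apply le_antisymm (sup_le hRK₁ hKK₁)
    rw [hK₁]
    exact sup_le le_sup_left (((Subgroup.zpowers_le).mpr hdK).trans le_sup_right)
  have h1c : (pCoreOf 2 K).relIndex K = 3 := by
    have h := Cfsg.Agent.Lib.Helper91.card_sup_mul_card_inf_of_le_normalizer R K hKR
    rw [hsupRK, hcardK₁, inf_comm, ← hQ] at h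
    have h2 := Cfsg.Agent.Lib.Helper1.card_eq_card_mul_relIndex
      (Cfsg.Agent.Lib.Helper47.pCoreOf_le 2 K)
    have hQpos : 0 < Nat.card (pCoreOf 2 K) := Nat.card_pos
    rw [h2] at h
    have h3 : Nat.card R * (Nat.card (pCoreOf 2 K) * 3) =
        Nat.card R * (Nat.card (pCoreOf 2 K) * (pCoreOf 2 K).relIndex K) := by
      rw [← h]; ring
    exact (Nat.eq_of_mul_eq_mul_left hQpos (Nat.eq_of_mul_eq_mul_left hRpos h3)).symm
  -- (1b)
  have hle : ⁅K, thompsonSubgroupOf 2 T⁆ ≤ K := by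
    rw [Subgroup.commutator_le]
    intro k hk j hj
    have h1 : ⁅k, j⁆ = k * (j * k⁻¹ * j⁻¹) := by rw [commutatorElement_def]; group
    rw [h1]
    exact K.mul_mem hk (hJK j hj _ (K.inv_mem hk))
  have hdN : d ∈ ⁅K, thompsonSubgroupOf 2 T⁆ := by
    have h1 : ⁅d, a⁆ ∈ ⁅K, thompsonSubgroupOf 2 T⁆ := Subgroup.commutator_mem_commutator hdK haJ
    have h2 : ⁅d, a⁆ = d ^ 2 := by
      have h3 : a * d⁻¹ * a⁻¹ = (a * d * a⁻¹)⁻¹ := by group
      rw [commutatorElement_def, mul_assoc, mul_assoc, ← mul_assoc a, h3, had, inv_inv, pow_two]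
    rw [h2] at h1
    have h4 : d = (d ^ 2) ^ 2 := by
      rw [← pow_mul]
      have h5 : d ^ (2 * 2) = d ^ 3 * d := by rw [← pow_succ]
      rw [h5, hd3, one_mul]
    rw [h4]
    exact Subgroup.pow_mem _ h1 2
  have hRN : R ≤ Subgroup.normalizer ((⁅K, thompsonSubgroupOf 2 T⁆ : Subgroup G) : Set G) := by
    apply Cfsg.Agent.Lib.Helper53.le_normalizer_of_conj_mem
    intro r hr w hw
    exact comm_conj_mem (fun v hv => hK₁K r (hRK₁ hr) v hv)
      (fun j hj => conj_mem_of_mem_normalizer (hTJ (hRT hr)) hj) hw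
  have h1b : ⁅K, thompsonSubgroupOf 2 T⁆ = K := by
    apply le_antisymm hle
    have hK₁N : K₁ ≤ ⁅K, thompsonSubgroupOf 2 T⁆ ⊔ R := by
      rw [hK₁]
      exact sup_le le_sup_right ((Subgroup.zpowers_le).mpr
        ((le_sup_left : _ ≤ ⁅K, thompsonSubgroupOf 2 T⁆ ⊔ R) hdN))
    conv_lhs => rw [hK]
    rw [Subgroup.closure_le]
    intro g hg
    exact mem_of_odd_of_mem_sup hR2 hRN (hK₁N hg.1) hg.2
  -- (2)
  have hcond2 := Cfsg.Agent.Lib.Helper85.KS12.jComponent_cond2_of_le hTL hKL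
  -- (3)
  have hWT : wOf K ≤ T := by
    unfold wOf
    rw [Subgroup.commutator_le]
    intro v hv k hk
    have hvQ : v ∈ pCoreOf 2 K := (mem_omegaCenterOf_iff.mp hv).1
    have hkn : k ∈ Subgroup.normalizer (pCoreOf 2 K : Set G) :=
      Cfsg.Agent.Lib.Helper47.le_normalizer_pCoreOf 2 K hk
    have h1 : ⁅v, k⁆ = v * (k * v⁻¹ * k⁻¹) := by rw [commutatorElement_def]; group
    have h2 : ⁅v, k⁆ ∈ pCoreOf 2 K := by
      rw [h1]
      exact Subgroup.mul_mem _ hvQ (conj_mem_of_mem_normalizer hkn (Subgroup.inv_mem _ hvQ))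
    rw [hQ] at h2
    exact hRT (Subgroup.mem_inf.mp h2).2
  have hWne : wOf K ≠ ⊥ := by
    have hdcent : d ∉ Subgroup.centralizer (omegaCenterOf R : Set G) :=
      fun h => hdC (hCV d hdD h)
    rw [Subgroup.mem_centralizer_iff] at hdcent
    push Not at hdcent
    obtain ⟨v, hv, hvd⟩ := hdcent
    have hv' : v ∈ omegaCenterOf R := hv
    obtain ⟨hvR, hvc, hv2⟩ := mem_omegaCenterOf_iff.mp hv'
    have hs1 : d * v * d⁻¹ ∈ omegaCenterOf R := conj_mem_omegaCenterOf hdR hv'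
    have hw : v * (d * v * d⁻¹) ∈ omegaCenterOf R := Subgroup.mul_mem _ hv' hs1
    obtain ⟨hwR, hwc, hw2⟩ := mem_omegaCenterOf_iff.mp hw
    have hvinv : v⁻¹ = v := by
      apply inv_eq_of_mul_eq_one_left; rw [← pow_two]; exact hv2
    have hwK : v * (d * v * d⁻¹) ∈ K := by
      have h1 : v * (d * v * d⁻¹) = (v * d * v⁻¹) * d⁻¹ := by rw [hvinv]; group
      rw [h1]
      exact K.mul_mem (hK₁K v (hRK₁ hvR) d hdK) (K.inv_mem hdK)
    have hwΩ : v * (d * v * d⁻¹) ∈ omegaCenterOf (pCoreOf 2 K) := by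
      rw [hQ]
      exact mem_omegaCenterOf_iff.mpr ⟨Subgroup.mem_inf.mpr ⟨hwK, hwR⟩,
        fun j hj => hwc j (Subgroup.mem_inf.mp hj).2, hw2⟩
    have hmem : ⁅v * (d * v * d⁻¹), d⁆ ∈ wOf K := by
      unfold wOf
      exact Subgroup.commutator_mem_commutator hwΩ hdK
    have hne : ⁅v * (d * v * d⁻¹), d⁆ ≠ 1 := by
      intro h1
      rw [commutatorElement_eq_one_iff_mul_comm] at h1
      apply hvd
      have hcomm : (d * v * d⁻¹) * v = v * (d * v * d⁻¹) :=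
        hvc _ (mem_omegaCenterOf_iff.mp hs1).1
      have h2 : d * (v * (d * v * d⁻¹)) * d⁻¹ = v * (d * v * d⁻¹) := by
        rw [← h1]; group
      have h3 : d * (v * (d * v * d⁻¹)) * d⁻¹ = (d * v * d⁻¹) * (d * (d * v * d⁻¹) * d⁻¹) := by
        group
      rw [h3, ← hcomm] at h2
      have hs2v : d * (d * v * d⁻¹) * d⁻¹ = v := mul_left_cancel h2
      have h5 : d * v * d⁻¹ = v := by
        calc d * v * d⁻¹ = d * (d * (d * v * d⁻¹) * d⁻¹) * d⁻¹ := by rw [hs2v]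
          _ = d ^ 3 * v * (d ^ 3)⁻¹ := by
            simp only [pow_succ, pow_zero, one_mul, mul_inv_rev, mul_assoc]
          _ = v := by rw [hd3]; simp
      exact (mul_inv_eq_iff_eq_mul.mp h5).symm
    intro hbot
    rw [hbot] at hmem
    exact hne (Subgroup.mem_bot.mp hmem)
  -- assembly
  have hsup : K ⊔ C = D := by
    apply le_antisymm (sup_le hKD hCD)
    intro x hx
    obtain ⟨i, c, hc, rfl⟩ := (q3 hCD (hDL.trans hCn) hDC hdD hdC).2 x hx
    exact Subgroup.mul_mem _ ((le_sup_left : K ≤ K ⊔ C) (K.pow_mem hdK i))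
      ((le_sup_right : C ≤ K ⊔ C) hc)
  exact ⟨K, ⟨h1a, h1b, h1c, hcond2, hFG K h1a h1b h1c hWT hWne⟩, hKD, hsup, hQ, hRKn⟩

end Cfsg.Agent.Lib.Helper25.KS12
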