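import Mathlib
import Cfsg.Prelude.Def_JComponents
import Cfsg.Agent.Lib.Helper25.KS12.FF2Core
import Cfsg.Agent.Lib.Helper15.KS12.FourGroup
import Cfsg.Agent.Lib.Helper2.KS12.PZ

set_option autoImplicit false

/-!
# KS12, part FF2: construction of a J(T)-component inside `D` (closed form, helper25)

`exists_jComponent_core` of `FF2Core` with the four-group lemma of helper15 plugged in.
-/

namespace Cfsg.Agent.Lib.Helper25.KS12

open Cfsg
open Cfsg.Agent.Lib.Helper2.KS12 (CL VL)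

variable {G : Type*} [Group G]

/-- **FF2**: `T` a Sylow 2-subgroup of `L`, `R ≤ T` normal in `L`, `R ≤ C ≤ D ≤ L`, `C` normal in
`L` with `C / R` of odd order and `[C, T] ≤ R`, `C` containing `C_D(Ω₁(Z(R)))`, `|D : C| = 3`, and
`J(T)` normalizing `D` and acting nontrivially on `D / C`.  Then `D = K C` for a J(T)-component
`K` with `O₂(K) = K ∩ R`, normalized by `R`. -/
theorem exists_jComponent [Finite G] (T L R C D : Subgroup G) (hTL : IsSylowTwoIn T L)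
    (hRT : R ≤ T) (hRn : L ≤ Subgroup.normalizer (R : Set G)) (hRC : R ≤ C) (hCD : C ≤ D)
    (hDL : D ≤ L) (hCn : L ≤ Subgroup.normalizer (C : Set G)) (hCodd : Odd (R.relIndex C))
    (hCT : ⁅C, T⁆ ≤ R)
    (hCV : ∀ x ∈ D, x ∈ Subgroup.centralizer (omegaCenterOf R : Set G) → x ∈ C)
    (hDC : C.relIndex D = 3)
    (hJD : thompsonSubgroupOf 2 T ≤ Subgroup.normalizer (D : Set G))
    (hJDC : ¬ ⁅D, thompsonSubgroupOf 2 T⁆ ≤ C) :
    ∃ K : Subgroup G, IsJComponent T K ∧ K ≤ D ∧ K ⊔ C = D ∧ pCoreOf 2 K = K ⊓ R ∧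
      R ≤ Subgroup.normalizer (K : Set G) :=
  exists_jComponent_core T L R C D hTL hRT hRn hRC hCD hDL hCn hCodd hCT hCV hDC hJD hJDC
    (fun K h1 h2 h3 hWT hW => Cfsg.Agent.Lib.Helper15.KS12.card_wOf_eq_four T K h1 h2 h3 hWT hW)

/-- **FF2 in `L`**: for `L ∈ jOvergroups T` (under the Z-condition), every subgroup `D` with
`C_L(V_L) ≤ D ≤ L`, `|D : C_L(V_L)| = 3`, normalized by `J(T)` which acts nontrivially on
`D / C_L(V_L)`, is `K C_L(V_L)` for a J(T)-component `K` with `O₂(K) = K ∩ O₂(L)`, normalized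
by `O₂(L)`. -/
theorem exists_jComponent_of_jOvergroups [Finite G]
    (hZ : ∀ S : Sylow 2 G, Subgroup.centralizer (Cfsg.omegaCenterOf (S : Subgroup G) : Set G) ≤
      Subgroup.normalizer ((S : Subgroup G) : Set G))
    {T L D : Subgroup G} (hLT : L ∈ jOvergroups T) (hCD : CL L ≤ D) (hDL : D ≤ L)
    (hDC : (CL L).relIndex D = 3)
    (hJD : thompsonSubgroupOf 2 T ≤ Subgroup.normalizer (D : Set G))
    (hJDC : ¬ ⁅D, thompsonSubgroupOf 2 T⁆ ≤ CL L) :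
    ∃ K : Subgroup G, IsJComponent T K ∧ K ≤ D ∧ K ⊔ CL L = D ∧
      pCoreOf 2 K = K ⊓ pCoreOf 2 L ∧ pCoreOf 2 L ≤ Subgroup.normalizer (K : Set G) := by
  have hT : IsSylowTwoIn T L := hLT.1
  have hCQ : Subgroup.centralizer (pCoreOf 2 L : Set G) ≤ pCoreOf 2 L := hLT.2.2
  exact exists_jComponent T L (pCoreOf 2 L) (CL L) D hT
    (Cfsg.Agent.Lib.Helper2.KS12.pCoreOf_le_of_isSylowTwoIn hT)
    (Cfsg.Agent.Lib.Helper47.le_normalizer_pCoreOf 2 L)
    (Cfsg.Agent.Lib.Helper2.KS12.pCoreOf_le_CL L) hCD hDL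
    (Cfsg.Agent.Lib.Helper2.KS12.le_normalizer_CL L)
    (Cfsg.Agent.Lib.Helper2.KS12.isSylowTwoIn_pCoreOf_CL hZ hT hCQ).2.2
    (Cfsg.Agent.Lib.Helper2.KS12.comm_CL_le hZ hT hCQ)
    (fun x hx hxc => Subgroup.mem_inf.mpr ⟨hDL hx, hxc⟩) hDC hJD hJDC

end Cfsg.Agent.Lib.Helper25.KS12
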